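import Mathlib
import Cfsg.Agent.Lib.Helper99.C64.Defs
import Cfsg.Agent.Lib.Helper40.Semisimple

/-!
# C64 (S6000), package [POS5] (helper21)

`ord_5(p) = 4`: elements of order 5 of `PSL_4(p)` are conjugate into `N(R0)`.
-/

set_option autoImplicit false

namespace Cfsg.Agent.Lib.Helper21.C64

open Matrix Polynomial Cfsg.Agent.Lib.Helper99.C64

universe u

section comp

variable {F : Type u} [Field F]

/-- `2 • g5`. -/
def mG (ι : F) : M4 F := !![-ι, -ι, 1, -1; -ι, ι, 1, 1; -ι, -ι, -1, 1; -ι, ι, -1, -1]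
/-- `(2 • g5)^2 / 2`. -/
def mH (ι : F) : M4 F := !![-1, -ι, -ι, 1; -ι, -1, -1, ι; -1, ι, -ι, -1; ι, -1, 1, ι]
/-- `(2 • g5)^4 / 8`. -/
def mK (ι : F) : M4 F := !![ι, ι, ι, ι; ι, -ι, ι, -ι; 1, 1, -1, -1; -1, 1, 1, -1]

theorem mG_sq {ι : F} (hι : ι ^ 2 = -1) : mG ι * mG ι = (2 : F) • mH ι := by
  have hι' : ι * ι = -1 := by rw [← hι]; ring
  ext i j
  fin_cases i <;> fin_cases j <;>
    simp [mG, mH, Matrix.mul_apply, Fin.sum_univ_four, hι'] <;> ring

theorem mH_sq {ι : F} (hι : ι ^ 2 = -1) : mH ι * mH ι = (2 : F) • mK ι := by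
  have hι' : ι * ι = -1 := by rw [← hι]; ring
  ext i j
  fin_cases i <;> fin_cases j <;>
    simp [mH, mK, Matrix.mul_apply, Fin.sum_univ_four, hι'] <;> ring

theorem mK_mG {ι : F} (hι : ι ^ 2 = -1) : mK ι * mG ι = (4 : F) • (1 : M4 F) := by
  have hι' : ι * ι = -1 := by rw [← hι]; ring
  ext i j
  fin_cases i <;> fin_cases j <;>
    simp [mK, mG, Matrix.mul_apply, Fin.sum_univ_four, hι'] <;> ring

theorem g5_eq (ι : F) : g5 ι = (2 : F)⁻¹ • mG ι := rfl

theorem g5_pow5 {ι : F} (h2 : (2 : F) ≠ 0) (hι : ι ^ 2 = -1) : g5 ι ^ 5 = 1 := by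
  have e2 : g5 ι * g5 ι = (2 : F)⁻¹ • mH ι := by
    rw [g5_eq, Matrix.smul_mul, Matrix.mul_smul, mG_sq hι, smul_smul, smul_smul]
    congr 1
    field_simp
  have e4 : (g5 ι * g5 ι) * (g5 ι * g5 ι) = (2 : F)⁻¹ • mK ι := by
    rw [e2, Matrix.smul_mul, Matrix.mul_smul, mH_sq hι, smul_smul, smul_smul]
    congr 1
    field_simp
  have e5 : g5 ι ^ 5 = (g5 ι * g5 ι) * (g5 ι * g5 ι) * g5 ι := by
    simp [pow_succ, mul_assoc]
  rw [e5, e4, g5_eq, Matrix.smul_mul, Matrix.mul_smul, mK_mG hι, smul_smul, smul_smul]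
  have h4 : (2 : F)⁻¹ * (2 : F)⁻¹ * 4 = 1 := by
    field_simp
    norm_num
  rw [h4, one_smul]

theorem g5_ne_one {ι : F} (h2 : (2 : F) ≠ 0) (hι : ι ^ 2 = -1) : g5 ι ≠ 1 := by
  intro h
  have h01 := congrFun (congrFun h 0) 1
  have hι0 : ι ≠ 0 := by
    rintro rfl
    norm_num at hι
  simp [g5, h2, hι0] at h01

end comp

/-- Over `F_p` with `ord_5(p) = 4`, a `4 × 4` matrix of order 5 has characteristic polynomial
`Φ_5`. -/
theorem charpoly_eq_cyclotomic_five {F : Type u} [Field F] [Fintype F] (p : ℕ) [Fact p.Prime]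
    (hcard : Fintype.card F = p) (hord : orderOf (p : ZMod 5) = 4)
    (M : M4 F) (hM : M ^ 5 = 1) (hM1 : M ≠ 1) : M.charpoly = cyclotomic 5 F := by
  classical
  have hp : p.Prime := Fact.out
  have hp5 : p ≠ 5 := by
    intro h
    rw [h] at hord
    have h0 : ((5 : ℕ) : ZMod 5) = 0 := by decide
    rw [h0] at hord
    have h1 := pow_orderOf_eq_one (0 : ZMod 5)
    rw [hord] at h1
    exact absurd h1 (by decide)
  have hcop : p.Coprime 5 := (Nat.coprime_primes hp (by norm_num)).2 hp5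
  have hirr : Irreducible (cyclotomic 5 F) := by
    apply Polynomial.irreducible_of_dvd_cyclotomic_of_natDegree (p := p) (f := 1) (n := 5)
      (by simpa using hcard) hcop dvd_rfl
    rw [natDegree_cyclotomic, ← orderOf_units, ZMod.coe_unitOfCoprime, pow_one, hord]
    decide
  have hmon : (cyclotomic 5 F).Monic := cyclotomic.monic 5 F
  have hdeg : (cyclotomic 5 F).natDegree = 4 := by
    rw [natDegree_cyclotomic]
    decide
  have hchi : aeval M M.charpoly = 0 := Matrix.aeval_self_charpoly M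
  have hX : aeval M (cyclotomic 5 F * (X - 1)) = 0 := by
    have : Fact (Nat.Prime 5) := ⟨by norm_num⟩
    rw [cyclotomic_prime_mul_X_sub_one]
    simp [hM]
  have hdvd : cyclotomic 5 F ∣ M.charpoly := by
    by_contra hnd
    have hco : IsCoprime (cyclotomic 5 F) M.charpoly := (hirr.coprime_iff_not_dvd).2 hnd
    obtain ⟨a, b, hab⟩ := hco
    have h1 : aeval M a * aeval M (cyclotomic 5 F) = 1 := by
      have h := congrArg (aeval M) hab
      simpa [hchi] using h
    have h2 : aeval M (cyclotomic 5 F) * (M - 1) = 0 := by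
      simpa using hX
    apply hM1
    have h3 : M - 1 = 0 := by
      calc M - 1 = (aeval M a * aeval M (cyclotomic 5 F)) * (M - 1) := by rw [h1, one_mul]
        _ = 0 := by rw [mul_assoc, h2, mul_zero]
    exact sub_eq_zero.1 h3
  have hcm : M.charpoly.Monic := Matrix.charpoly_monic M
  have hcd : M.charpoly.natDegree = 4 := by
    simpa using Matrix.charpoly_natDegree_eq_dim M
  exact Polynomial.eq_of_monic_of_dvd_of_natDegree_le hmon hcm hdvd (by rw [hcd, hdeg])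

/-- [POS5]. -/
theorem pkgPos5_of (hN : PkgNG.{u}) : PkgPos5.{u} := by
  intro F _ _ p _ _ hcard hp4 hord ι hι x hx hz hns
  classical
  obtain ⟨z, hz⟩ := hz
  have hp : p.Prime := Fact.out
  have hp5 : p ≠ 5 := by
    intro h
    rw [h] at hord
    have h0 : ((5 : ℕ) : ZMod 5) = 0 := by decide
    rw [h0] at hord
    have h1 := pow_orderOf_eq_one (0 : ZMod 5)
    rw [hord] at h1
    exact absurd h1 (by decide)
  have hp2 : p ≠ 2 := by
    rintro rfl
    norm_num at hp4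
  have h2 : (2 : F) ≠ 0 := by
    intro h
    have h' : ((2 : ℕ) : F) = 0 := by exact_mod_cast h
    rw [CharP.cast_eq_zero_iff F p 2] at h'
    exact hp2 ((Nat.prime_dvd_prime_iff_eq hp Nat.prime_two).1 h')
  have h5 : ((5 : ℕ) : F) ≠ 0 := by
    intro h
    rw [CharP.cast_eq_zero_iff F p 5] at h
    exact hp5 ((Nat.prime_dvd_prime_iff_eq hp (by norm_num)).1 h)
  have hdet : (x : M4 F).det = 1 := by
    have h1 : Matrix.GeneralLinearGroup.det x = 1 := hx
    have h2 := congrArg Units.val h1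
    simpa using h2
  have hz4 : z ^ 4 = 1 := by
    have h := congrArg Matrix.det hz
    rw [Units.val_pow_eq_pow_val, Matrix.det_pow, hdet, one_pow, Matrix.det_smul,
      Matrix.det_one] at h
    simpa using h.symm
  have hz0 : z ≠ 0 := by
    rintro rfl
    simp at hz4
  have hxy : (x : M4 F) = z • (z⁻¹ • (x : M4 F)) := by
    rw [smul_smul, mul_inv_cancel₀ hz0, one_smul]
  have hy5 : (z⁻¹ • (x : M4 F)) ^ 5 = 1 := by
    rw [_root_.smul_pow, ← Units.val_pow_eq_pow_val, hz, smul_smul]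
    have h1 : z⁻¹ ^ 5 * z = 1 := by
      rw [inv_pow, inv_mul_eq_div, div_eq_one_iff_eq (pow_ne_zero 5 hz0)]
      linear_combination -z * hz4
    rw [h1, one_smul]
  have hy1 : z⁻¹ • (x : M4 F) ≠ 1 := by
    intro h
    apply hns
    refine ⟨z, ?_⟩
    rw [hxy, h]
  have hg5 := g5_pow5 h2 hι
  have hcy := charpoly_eq_cyclotomic_five p hcard hord _ hy5 hy1
  have hcg := charpoly_eq_cyclotomic_five p hcard hord (g5 ι) hg5 (g5_ne_one h2 hι)
  have hsy : Module.End.IsSemisimple (Matrix.toLin' (z⁻¹ • (x : M4 F))) :=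
    Cfsg.Agent.Lib.Helper40.isSemisimple_of_pow_eq_one _ 5 h5 hy5
  have hsg : Module.End.IsSemisimple (Matrix.toLin' (g5 ι)) :=
    Cfsg.Agent.Lib.Helper40.isSemisimple_of_pow_eq_one (g5 ι) 5 h5 hg5
  obtain ⟨e, he⟩ := Cfsg.Agent.Lib.Helper40.exists_similar_of_charpoly_eq _ (g5 ι) hsy hsg
    (hcy.trans hcg.symm)
  have hdet_e : IsUnit (LinearMap.det (e : (Fin 4 → F) →ₗ[F] (Fin 4 → F))) := e.isUnit_det'
  obtain ⟨c, hcomm, hcdet⟩ := Cfsg.Agent.Lib.Helper40.exists_commute_det_eq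
    (Matrix.toLin' (z⁻¹ • (x : M4 F))) hsy
    (LinearMap.det (e : (Fin 4 → F) →ₗ[F] (Fin 4 → F)))⁻¹
  let e' : (Fin 4 → F) →ₗ[F] (Fin 4 → F) := (e : (Fin 4 → F) →ₗ[F] (Fin 4 → F)) ∘ₗ c
  have hdet' : LinearMap.det e' = 1 := by
    simp only [e']
    rw [LinearMap.det_comp, hcdet]
    exact mul_inv_cancel₀ hdet_e.ne_zero
  have hint : ∀ v, e' (Matrix.toLin' (z⁻¹ • (x : M4 F)) v) = Matrix.toLin' (g5 ι) (e' v) := by
    intro v
    simp only [e', LinearMap.comp_apply, hcomm, LinearEquiv.coe_coe, he]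
  let P : M4 F := LinearMap.toMatrix' e'
  have hPdet : P.det = 1 := by
    simp only [P]
    rw [LinearMap.det_toMatrix', hdet']
  have hPy : P * (z⁻¹ • (x : M4 F)) = g5 ι * P := by
    apply Matrix.toLin'.injective
    apply LinearMap.ext
    intro v
    simp only [P, Matrix.toLin'_mul, Matrix.toLin'_toMatrix', LinearMap.comp_apply]
    exact hint v
  have hPx : P * (x : M4 F) = (z • g5 ι) * P := by
    rw [hxy, Matrix.mul_smul, hPy, Matrix.smul_mul]
  let Pu : GL (Fin 4) F := Matrix.nonsingInvUnit P (by rw [hPdet]; exact isUnit_one)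
  have hPu : (Pu : M4 F) = P := rfl
  refine ⟨Pu⁻¹, ?_, ?_⟩
  · apply Subgroup.inv_mem
    show Matrix.GeneralLinearGroup.det Pu = 1
    apply Units.ext
    simp [hPu, hPdet]
  · rw [inv_inv]
    apply hN F h2 ι hι (Pu * x * Pu⁻¹) z
    rw [Units.val_mul, Units.val_mul, hPu, hPx, Matrix.mul_assoc]
    have h1 : P * ((Pu⁻¹ : GL (Fin 4) F) : M4 F) = 1 := by
      rw [← hPu]
      exact Units.mul_inv Pu
    rw [h1, Matrix.mul_one]

end Cfsg.Agent.Lib.Helper21.C64
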